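import Cfsg.Agent.Lib.ToddCox.L37C4.Data
set_option autoImplicit false
set_option maxRecDepth 100000
namespace Cfsg.Agent.Lib.ToddCox.L37C4
theorem wordsGood : allBelow (wordsOK W (relR Rb inv) inv sp) nW 3 = true := by decide +kernel
theorem d0 : allBits (fun k => bif Nat.blt k 6 then chkDef Eo inv k else true) 13 0 = true := by decide +kernel
theorem s0 : chkStream Eo inv W isH 10 6 0x1c00000d800007400001600001a000001800002800001000001800000b000002400000000000a00000400000180000080000020000000000034000002000003000002800001c00001200000b000001000001000000400001200000280000580000020000060000020000050000024000005000000000000000001800000e0000008000048000002000002000000000004400001e0000010000007ffffffffffffffffff = true := by decide +kernel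
theorem c0 : Covered Eo inv W isH 6 16 := covered_of_stream 10 6 _ s0
theorem l0 : chkPoints Eo cF (2 * nEv) N ys 7 0 0xd800001800003e00000500000e0000014000016000005000004800001000003c00000600000e8000018000014000006000004000001400003200000300000b000000c00000e000003000002800000800003000000400000b800001000000c000004000002000000c00002a00000100000900000040000060000010000008000000000028000002000009800000800000400000200000000000040000200000000000070000000000018000000 = true := by decide +kernel
theorem k0 : LinksOK Eo cF (2 * nEv) N ys 0 7 := linksOK_of_points 7 0 _ l0
end Cfsg.Agent.Lib.ToddCox.L37C4
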